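import Cfsg.Agent.Q10.Mod
import Cfsg.Agent.LX.Basic
import Cfsg.Agent.Loc.CharP
import Cfsg.Agent.Transfer.Tate

/-! Fusion of involutions in a group containing the wreath product of the symmetric group of degree 4 by a
group of order 2 with odd index. -/

set_option autoImplicit false

namespace CF.Q10

open Cfsg Subgroup CF.Loc CF.LX Equiv

variable {G : Type*} [Group G]

/-- an element stabilizing a chain in the 2-core of a group of characteristic 2 lies in it -/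
theorem stab [Finite G] {C E : Subgroup G} (h : IsCharP 2 C) (hn : C ≤ 𝐍(E)) {x : G} (hx : x ∈ C)
    (h1 : x ∈ 𝐂(E)) (h2 : ∀ q ∈ pCoreOf 2 C, q * x * q⁻¹ * x⁻¹ ∈ E) : x ∈ pCoreOf 2 C := by
  let X : Subgroup G :=
    { carrier := {x | x ∈ C ∧ x ∈ 𝐂(E) ∧ ∀ q ∈ pCoreOf 2 C, q * x * q⁻¹ * x⁻¹ ∈ E}
      one_mem' := ⟨one_mem _, one_mem _, fun q _ => by simp⟩
      mul_mem' := fun {a b} ha hb => ⟨mul_mem ha.1 hb.1, mul_mem ha.2.1 hb.2.1, fun q hq => by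
        have := E.mul_mem (ha.2.2 q hq) (conj_mem_of_mem_normalizer (hn ha.1) (hb.2.2 q hq))
        convert this using 1; group⟩
      inv_mem' := fun {a} ha => ⟨inv_mem ha.1, inv_mem ha.2.1, fun q hq => by
        have := conj_mem_of_mem_normalizer' (hn ha.1) (E.inv_mem (ha.2.2 q hq))
        convert this using 1; group⟩ }
  have hX : X ≤ C := fun _ k => k.1
  have c1 : ⁅pCoreOf 2 C, X⁆ ≤ E := commutator_le.2 fun q hq u hu => hu.2.2 q hq
  have p : IsPGroup 2 X := h.isPGroup_of_quadratic hX (commutator_eq_bot_iff_le_centralizer'.2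
    fun y hy => centralizer_anti c1 hy.2.1)
  refine le_pCoreOf p hX (fun g hg => mem_normalizer_of_conj_mem fun y hy => ⟨?_, ?_, fun q hq => ?_⟩)
    (show x ∈ X from ⟨hx, h1, h2⟩)
  · exact C.mul_mem (C.mul_mem hg hy.1) (C.inv_mem hg)
  · exact conj_mem_of_mem_normalizer (normalizer_le_normalizer_centralizer E (hn hg)) hy.2.1
  · have := conj_mem_of_mem_normalizer (hn hg)
      (hy.2.2 _ (conj_mem_of_mem_normalizer' (le_normalizer_pCoreOf 2 C hg) hq))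
    convert this using 1; group

/-- the hypotheses -/
structure Ctx (φ : T0 →* G) (κ1 κ2 : Perm (Fin 4) →* G) : Prop where
  inj : Function.Injective φ
  syl : IsSyl 2 φ.range ⊤
  no2 : ∀ K : Subgroup G, K.Normal → K.index ≠ 2
  ch : IsCharP 2 𝐂₁(φ z)
  k1 : ∀ d, κ1 (pp d) = φ (i1 d)
  k2 : ∀ d, κ2 (pp d) = φ (i2 d)
  kc : ∀ f g, κ1 f * κ2 g = κ2 g * κ1 f
  inj1 : Function.Injective κ1
  inj2 : Function.Injective κ2

/-- conjugation by a given element -/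
def Cj (φ : T0 →* G) (y : G) (p q : T0) : Prop := y * φ p * y⁻¹ = φ q

/-- conjugacy -/
def Cn (φ : T0 →* G) (p q : T0) : Prop := ∃ y, Cj φ y p q

variable {φ : T0 →* G} {κ1 κ2 : Perm (Fin 4) →* G}

namespace Cj

variable {x y : G} {p q p' q' : T0}

theorem eq (h : Cj φ y p q) : y * φ p * y⁻¹ = φ q := h

theorem mul (h : Cj φ y p q) (k : Cj φ y p' q') : Cj φ y (p * p') (q * q') := by
  unfold Cj at *; rw [map_mul, map_mul, conj_mul_conj, h, k]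

theorem one (y : G) : Cj φ y 1 1 := by simp [Cj]

theorem comp (h : Cj φ y p q) (k : Cj φ x q p') : Cj φ (x * y) p p' := by
  unfold Cj at *; rw [← k, ← h]; group

theorem symm (h : Cj φ y p q) : Cj φ y⁻¹ q p := by
  unfold Cj at *; rw [← h]; group

theorem of' {t : T0} (e : t * p = q * t) : Cj φ (φ t) p q := by
  unfold Cj; rw [← map_mul, e, map_mul, mul_inv_cancel_right]

theorem cast (h : Cj φ y p q) (e1 : p = p') (e2 : q = q') : Cj φ y p' q' := e1 ▸ e2 ▸ h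

theorem sq (h : Cj φ y p q) (k : Cj φ y p' q') : Cj φ y (p * p' * (p * p')) (q * q' * (q * q')) :=
  (h.mul k).mul (h.mul k)

theorem cn (h : Cj φ y p q) : Cn φ p q := ⟨y, h⟩

theorem mem (h : Cj φ y p p) : y ∈ 𝐂₁(φ p) := mem_c1.2 (conj_eq_iff.1 h)

theorem of_mem (h : y ∈ 𝐂₁(φ p)) : Cj φ y p p := conj_eq_iff.2 (mem_c1.1 h)

end Cj

namespace Cn

variable {p q r : T0}

theorem refl (p : T0) : Cn φ p p := ⟨1, by simp [Cj]⟩
theorem symm (h : Cn φ p q) : Cn φ q p := h.elim fun _ k => k.symm.cn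
theorem trans (h : Cn φ p q) (k : Cn φ q r) : Cn φ p r :=
  h.elim fun _ a => k.elim fun _ b => (a.comp b).cn
theorem of' {t : T0} (e : t * p = q * t) : Cn φ p q := (Cj.of' e).cn

end Cn

namespace Ctx

variable (h : Ctx φ κ1 κ2)
include h

theorem tr {y : G} {p q p' q' : T0} (e : Cj φ y p q) (k : Cj φ y p' q') (a : p = p') : q = q' :=
  h.inj (e.eq.symm.trans (a ▸ k.eq))

theorem tr' {y : G} {p q p' q' : T0} (e : Cj φ y p q) (k : Cj φ y p' q') (a : q = q') : p = p' :=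
  h.tr e.symm k.symm a

theorem comm {y : G} {p q p' q' : T0} (e : Cj φ y p q) (k : Cj φ y p' q') (a : p * p' = p' * p) :
    q * q' = q' * q := h.tr (e.mul k) (k.mul e) a

theorem sq1 {y : G} {p q : T0} (e : Cj φ y p q) (a : p * p = 1) : q * q = 1 :=
  h.tr (e.mul e) (Cj.one y) a

theorem ne1 {y : G} {p q : T0} (e : Cj φ y p q) (a : p ≠ 1) : q ≠ 1 :=
  fun k => a (h.tr' e (Cj.one y) k)

theorem mem_map {H : Subgroup T0} {a : T0} : φ a ∈ H.map φ ↔ a ∈ H :=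
  mem_map_iff_mem h.inj

theorem card_map (H : Subgroup T0) : Nat.card (H.map φ) = Nat.card H :=
  Subgroup.card_map_of_injective h.inj

theorem pg (H : Subgroup T0) : IsPGroup 2 (H.map φ) := h.syl.isPGroup.to_le (map_le_range φ H)

theorem cle (u : T0) : (𝐂₁(u)).map φ ≤ 𝐂₁(φ u) := by
  rintro _ ⟨t, ht, rfl⟩
  exact mem_c1.2 (by rw [← map_mul, mem_c1.1 ht, map_mul])

theorem lec {u : T0} {x : G} (h1 : x ∈ φ.range) (h2 : x ∈ 𝐂₁(φ u)) : x ∈ (𝐂₁(u)).map φ := by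
  obtain ⟨t, rfl⟩ := h1
  exact mem_map_of_mem φ (mem_c1.2 (h.inj (by rw [map_mul, map_mul]; exact mem_c1.1 h2)))

theorem r1z : Cj φ (κ1 ρ) z1 v1 := by
  show κ1 ρ * φ (i1 dz) * _ = φ (i1 dv)
  rw [← h.k1, ← h.k1, ← map_mul, ρ_z, map_mul, mul_inv_cancel_right]

theorem r1v : Cj φ (κ1 ρ) v1 (v1 * z1) := by
  show κ1 ρ * φ (i1 dv) * _ = φ (i1 (dv * dz))
  rw [← h.k1, ← h.k1, ← map_mul, ρ_v, map_mul, mul_inv_cancel_right]

theorem r2z : Cj φ (κ2 ρ) z2 v2 := by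
  show κ2 ρ * φ (i2 dz) * _ = φ (i2 dv)
  rw [← h.k2, ← h.k2, ← map_mul, ρ_z, map_mul, mul_inv_cancel_right]

theorem r2v : Cj φ (κ2 ρ) v2 (v2 * z2) := by
  show κ2 ρ * φ (i2 dv) * _ = φ (i2 (dv * dz))
  rw [← h.k2, ← h.k2, ← map_mul, ρ_v, map_mul, mul_inv_cancel_right]

theorem r1f (f : Perm (Fin 4)) (d : D8) : Cj φ (κ1 f) (i2 d) (i2 d) :=
  conj_eq_iff.2 (by rw [← h.k2, h.kc])

theorem r2f (f : Perm (Fin 4)) (d : D8) : Cj φ (κ2 f) (i1 d) (i1 d) :=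
  conj_eq_iff.2 (by rw [← h.k1, h.kc])

theorem z12 : Cn φ z1 z2 := Cn.of' (t := s) (by decide)
theorem z1v : Cn φ z1 v1 := h.r1z.cn
theorem zvz : Cn φ z (v1 * z2) := ((h.r1z.mul (h.r1f ρ dz)).cast (by decide) rfl).cn
theorem zw : Cn φ z w := h.zvz.trans (((h.r2f ρ dv).mul h.r2z).cast rfl (by decide)).cn

variable [Finite G]

theorem sylC {y : T0} (hm : ∀ u, Cn φ y u → cc u ≤ cc y) :
    IsSyl 2 ((𝐂₁(y)).map φ) 𝐂₁(φ y) := by
  obtain ⟨S, hS, le⟩ := exists_isSyl_ge (h.pg 𝐂₁(y)) (h.cle y)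
  obtain ⟨k, -, hk⟩ := h.syl.exists_cj_le hS.isPGroup le_top
  obtain ⟨u, hu⟩ := hk (conj_mem_cj k (le (mem_map_of_mem φ (mem_c1.2 rfl))))
  refine hS.of_card_le (h.pg _) (h.cle y) ?_
  rw [h.card_map, card_cent]
  refine le_trans ?_ (hm u ⟨k, hu.symm⟩)
  rw [← card_cent, ← h.card_map, ← card_cj k]
  refine card_le_of_le fun x hx => h.lec (hk hx) ?_
  rw [hu, ← cj_centralizer_singleton]
  exact cj_mono k hS.le hx

theorem ext {x y : T0} (e : Cn φ x y) (hm : ∀ u, Cn φ y u → cc u ≤ cc y) :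
    ∃ g, Cj φ g x y ∧ ∀ t, t * x = x * t → ∃ t', Cj φ g t t' ∧ t' * y = y * t' := by
  obtain ⟨g, hg⟩ := e
  obtain ⟨n, hn, k⟩ := (h.sylC hm).exists_cj_le (isPGroup_cj g (h.pg 𝐂₁(x)))
    (by rw [← hg, ← cj_centralizer_singleton]; exact cj_mono g (h.cle x))
  refine ⟨n * g, hg.comp (Cj.of_mem hn), fun t ht => ?_⟩
  rw [← cj_mul] at k
  obtain ⟨t', h1, h2⟩ := k (conj_mem_cj _ (mem_map_of_mem φ (mem_c1.2 ht)))
  exact ⟨t', h2.symm, mem_c1.1 h1⟩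

theorem extz {x : T0} (e : Cn φ x z) :
    ∃ g, Cj φ g x z ∧ ∀ t, t * x = x * t → ∃ t', Cj φ g t t' := by
  obtain ⟨g, a, k⟩ := h.ext e fun u _ => cc_z ▸ cc_le u
  exact ⟨g, a, fun t ht => (k t ht).imp fun _ => And.left⟩

theorem big {g : G} {x u : T0} (k : ∀ t, inJ t = true → ∃ t', Cj φ g t t') (e : Cj φ g x u)
    (hx : ∀ t, inJ t = true → t * x = x * t) (x1 : x ≠ 1) : u = z ∨ u = z1 ∨ u = z2 := by
  have : 64 ≤ cc u := by
    rw [← card_cent, ← h.card_map, ← card_J, ← h.card_map, ← card_cj g]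
    refine card_le_of_le (cj_le_iff_forall.2 ?_)
    rintro _ ⟨t, ht, rfl⟩
    obtain ⟨t', a⟩ := k t ht
    exact a.eq.symm ▸ mem_map_of_mem φ (mem_c1.2 (h.comm a e (hx t ht)))
  rcases cc_32 u with a | a | a
  · omega
  · exact absurd a (h.ne1 e x1)
  · exact a

theorem nz1 : ¬ Cn φ z1 z := fun e => by
  obtain ⟨g, a, k⟩ := h.extz e
  have k' : ∀ t, inJ t = true → ∃ t', Cj φ g t t' := fun t ht => k t (by revert t; decide +kernel)
  obtain ⟨u, hu⟩ := k' z2 rfl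
  have hu' : u = z1 ∨ u = z2 := (h.big k' hu (by decide +kernel) (by decide)).resolve_left
    fun q => absurd (h.tr' hu a q) (by decide)
  have j : ∀ t, inJ t = true → t * t = 1 → ∃ t', Cj φ g t t' ∧ inJ t' = true ∧ t' * t' = 1 :=
    fun t ht tt => (k' t ht).imp fun t' q => ⟨q, inJ_of u hu' t' (h.comm q hu
      ((by decide +kernel : ∀ t : T0, inJ t = true → t * z2 = z2 * t) t ht)), h.sq1 q tt⟩
  obtain ⟨α, p1, p2, p3⟩ := j a1 rfl rfl
  obtain ⟨β, q1, q2, q3⟩ := j v1 rfl rfl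
  obtain ⟨x, r1, r2, r3⟩ := j a2 rfl rfl
  obtain ⟨y, s1, s2, s3⟩ := j v2 rfl rfl
  exact absurd (h.tr' (r1.sq s1) (Cj.one g) (f1' x (f1 α p2 p3 β q2 q3 (h.tr (p1.sq q1) a rfl) x r2
    (h.comm r1 p1 rfl) (h.comm r1 q1 rfl)) y s2 s3)) (by decide)

theorem dis {p : T0} (a : Cn φ p z1) (k : Cn φ p z) : False := h.nz1 (a.symm.trans k)

theorem max1 {y : T0} (e : y = z1 ∨ y = z2) (u : T0) (k : Cn φ y u) : cc u ≤ cc y := by
  have a : cc y = 64 := e.elim (· ▸ cc_z1) (· ▸ cc_z2)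
  have a' : Cn φ y z1 := e.elim (· ▸ Cn.refl _) (· ▸ h.z12.symm)
  obtain ⟨g, k⟩ := k
  rcases cc_64 u with q | q | q
  · omega
  · exact absurd q (h.ne1 k (by rcases e with rfl | rfl <;> decide))
  · exact (h.dis a' (q ▸ k.cn)).elim

theorem ext1 {x y : T0} (e : y = z1 ∨ y = z2) (k : Cn φ x y) :
    ∃ g, Cj φ g x y ∧ ∀ t, t * x = x * t → ∃ t', Cj φ g t t' ∧ inJ t' = true := by
  obtain ⟨g, a, k⟩ := h.ext k (h.max1 e)
  exact ⟨g, a, fun t ht => (k t ht).imp fun t' q => ⟨q.1, inJ_of y e t' q.2⟩⟩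

theorem sylJ : IsSyl 2 (J.map φ) 𝐂₁(φ z1) := by
  have : J = 𝐂₁(z1) := Subgroup.ext fun t => mem_J.trans (Iff.trans (by revert t; decide +kernel) mem_c1.symm)
  exact this ▸ h.sylC (h.max1 (Or.inl rfl))

theorem ns1 : ¬ Cn φ s z1 := fun e => by
  obtain ⟨g, a, k⟩ := h.ext1 (Or.inl rfl) e
  obtain ⟨α, p1, p2⟩ := k c (by decide)
  obtain ⟨β, q1, q2⟩ := k w (by decide)
  have ζ := (p1.sq q1).cast (show _ = z by decide) rfl
  rcases f2 α p2 (h.sq1 p1 rfl) β q2 (h.sq1 q1 rfl) with r | r | r | ⟨-, -, r⟩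
  · exact h.ne1 ζ (by decide) r
  · exact h.dis (r ▸ ζ.cn) (Cn.refl _)
  · exact h.dis ((r ▸ ζ.cn).trans h.z12.symm) (Cn.refl _)
  · have b1 : Cn φ β (β * z1) := r.elim Cn.of' Cn.of'
    have b2 : Cn φ (w * s) s := Cn.of' (t := v1) (by decide)
    exact h.dis (((q1.cn.trans b1).trans (q1.mul a).cn.symm).trans (b2.trans e)) h.zw.symm

theorem thompson {x : T0} (xx : x * x = 1) (x1 : x ≠ 1) : Cn φ x z ∨ Cn φ x z1 ∨ Cn φ x c := by
  by_contra hh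
  have i : (T1.map φ).relIndex φ.range = 2 := by
    rw [MonoidHom.range_eq_map, relIndex_map_map_of_injective _ _ h.inj, relIndex_top_right, T1_index]
  obtain ⟨K, n, k, -⟩ := Transfer.thompson_transfer (relIndex_top_right φ.range ▸ h.syl.not_dvd_relIndex) i
    (x := φ x) ⟨x, rfl⟩ (orderOf_eq_prime (by rw [pow_two, ← map_mul, xx, map_one])
      fun q => x1 (h.inj (q.trans (map_one φ).symm))) fun g ⟨u, hu, q⟩ => hh (by
      have q : Cj φ g x u := q.symm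
      rcases f11 u hu (h.sq1 q xx) with r | ⟨t, r | r | r | r | r | r⟩
      · exact absurd r (h.ne1 q x1)
      · exact Or.inl (q.cn.trans (Cn.of' r))
      · exact Or.inr (Or.inl (q.cn.trans (Cn.of' r)))
      · exact Or.inr (Or.inl ((q.cn.trans (Cn.of' r)).trans h.z1v.symm))
      · exact Or.inl ((q.cn.trans (Cn.of' r)).trans h.zvz.symm)
      · exact Or.inl ((q.cn.trans (Cn.of' r)).trans h.zw.symm)
      · exact Or.inr (Or.inr (q.cn.trans (Cn.of' r))))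
  exact h.no2 K n k

theorem sz : Cn φ s z := by
  by_contra hh
  have e : Cn φ s c := ((h.thompson (x := s) rfl (by decide)).resolve_left hh).resolve_left h.ns1
  have n1 : ¬ Cn φ c z := fun q => hh (e.trans q)
  have n2 : ¬ Cn φ c z1 := fun q => h.ns1 (e.trans q)
  obtain ⟨g, -, k⟩ := h.ext e fun u ⟨y, q⟩ => by
    rcases cc_32 u with r | r | r | r | r
    · exact cc_c ▸ r
    · exact absurd r (h.ne1 q (by decide))
    · exact (n1 (r ▸ q.cn)).elim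
    · exact (n2 (r ▸ q.cn)).elim
    · exact (n2 ((r ▸ q.cn).trans h.z12.symm)).elim
  obtain ⟨α, p1, p2⟩ := k c (by decide)
  obtain ⟨β, q1, q2⟩ := k w (by decide)
  have ζ := (p1.sq q1).cast (show _ = z by decide) rfl
  have bz : Cn φ β z := q1.cn.symm.trans h.zw.symm
  rcases f3 α p2 (h.sq1 p1 rfl) β q2 (h.sq1 q1 rfl) with r | r | r | ⟨t, r | r | r⟩
  · exact h.ne1 ζ (by decide) r
  · exact n1 (r ▸ ζ.cn).symm
  · exact n1 ((Cn.of' (t := w) (by decide)).trans (r ▸ ζ.cn).symm)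
  · exact hh ((Cn.of' r).symm.trans bz)
  · exact h.dis (Cn.of' r) bz
  · exact n1 ((Cn.of' r).symm.trans bz)

theorem Q_le : pCoreOf 2 𝐂₁(φ z) ≤ φ.range :=
  (h.syl.mono (by rintro _ ⟨t, rfl⟩; exact (Cj.of' (z_cent t)).mem) le_top).pCoreOf_le

theorem zz : φ z * φ z = 1 := by rw [← map_mul]; exact map_one φ

theorem z1Q : φ z1 ∈ pCoreOf 2 𝐂₁(φ z) := by
  refine stab (E := zpowers (φ z)) h.ch
    (by rw [← centralizer_zpowers]; exact centralizer_le_normalizer _) (Cj.of' (z_cent z1)).mem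
    (by rw [centralizer_zpowers]; exact (Cj.of' (z_cent z1)).mem) fun q hq => ?_
  obtain ⟨t, rfl⟩ := h.Q_le hq
  rw [← map_inv, ← map_inv, ← map_mul, ← map_mul, ← map_mul]
  rcases f10 t with r | r <;> rw [r]
  · rw [map_one]; exact one_mem _
  · exact mem_zpowers _

theorem cjQ {k : G} (e : Cj φ k z z) {x : T0} (hx : φ x ∈ pCoreOf 2 𝐂₁(φ z)) :
    ∃ u, Cj φ k x u ∧ φ u ∈ pCoreOf 2 𝐂₁(φ z) := by
  have := conj_mem_of_mem_normalizer (le_normalizer_pCoreOf 2 _ e.mem) hx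
  obtain ⟨u, hu⟩ := h.Q_le this
  exact ⟨u, hu.symm, hu ▸ this⟩

theorem cz1 : ∃ k, Cj φ k z z ∧ Cj φ k z1 c := by
  obtain ⟨g, a, k⟩ := h.extz h.sz
  obtain ⟨α, p1⟩ := k c (by decide)
  obtain ⟨β, q1⟩ := k w (by decide)
  have ζ := (p1.sq q1).cast (show _ = z by decide) rfl
  rcases f4 (α * β) _ rfl (h.sq1 ζ rfl) with r | r | r | r | ⟨r, σ, r1, r2⟩
  · exact absurd r (h.ne1 ζ (by decide))
  · exact absurd (h.tr' ζ a r) (by decide)
  · exact (h.dis (r ▸ ζ.cn) (Cn.refl _)).elim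
  · exact (h.dis ((r ▸ ζ.cn).trans h.z12.symm) (Cn.refl _)).elim
  obtain ⟨g', a', k'⟩ := h.extz ζ.cn.symm
  obtain ⟨α', p2⟩ := k' z1 r
  obtain ⟨β', q2⟩ := k' σ r1
  have e1 := (ζ.comp a').symm
  have e2 := (a.comp ((p2.sq q2).cast r2 rfl)).symm
  obtain ⟨u, hu, -⟩ := h.cjQ e1 h.z1Q
  rcases f6 u (h.comm hu e2 (f5 _)) (h.sq1 hu rfl) with r | r | r | r | ⟨t, r | r⟩
  · exact absurd r (h.ne1 hu (by decide))
  · exact (h.nz1 (r ▸ hu.cn)).elim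
  · exact ⟨_, e1, r ▸ hu⟩
  · exact ⟨_, e1.comp (Cj.of' (z_cent w)), (hu.cast rfl r).comp (Cj.of' (t := w) (by decide))⟩
  · exact (h.nz1 ((hu.cn.trans (Cn.of' r)).trans h.sz)).elim
  · exact (h.nz1 ((hu.cn.trans (Cn.of' r)).trans h.zw.symm)).elim

theorem z1c : Cn φ c z1 := h.cz1.elim fun _ k => k.2.cn.symm

theorem z1A {k : G} (e : Cj φ k z z) : ∃ u, Cj φ k z1 u ∧ inA u = true := by
  obtain ⟨u, hu, q⟩ := h.cjQ e h.z1Q
  obtain ⟨k0, e0, e1⟩ := h.cz1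
  obtain ⟨u', hu', -⟩ := h.cjQ e0.symm q
  have uu := h.sq1 hu rfl
  have r : u' * z1 * (u' * z1) = 1 ∨ u' * z1 * (u' * z1) = z :=
    (by decide +kernel : ∀ t : T0, t * t = 1 → t * z1 * (t * z1) = 1 ∨ t * z1 * (t * z1) = z) u'
      (h.sq1 hu' uu)
  have s1 := hu'.symm.sq e1.symm.symm
  rcases f7 u uu (r.imp (h.tr s1 (Cj.one _)) (h.tr s1 e0.symm.symm)) with r | ⟨t, r | r⟩
  · exact ⟨u, hu, r⟩
  · exact (h.nz1 ((hu.cn.trans (Cn.of' r)).trans h.sz)).elim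
  · exact (h.nz1 ((hu.cn.trans (Cn.of' r)).trans h.zw.symm)).elim

theorem nA {k : G} (e : Cj φ k z z) {a : T0} (ha : inA a = true) : ∃ u, Cj φ k a u ∧ inA u = true := by
  let E : Subgroup G := closure {x | ∃ k ∈ 𝐂₁(φ z), k * φ z1 * k⁻¹ = x}
  have hn : 𝐂₁(φ z) ≤ 𝐍(E) := fun g hg => mem_normalizer_of_cj_le (by
    rw [MonoidHom.map_closure, closure_le]
    rintro _ ⟨_, ⟨k, hk, rfl⟩, rfl⟩
    exact subset_closure ⟨g * k, mul_mem hg hk, by simp [mul_assoc]⟩)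
  have hE : φ a ∈ 𝐂(E) := by
    refine le_centralizer_iff.1 (show E ≤ 𝐂(zpowers (φ a)) from ?_) (mem_zpowers _)
    rw [centralizer_zpowers, closure_le]
    rintro _ ⟨k, hk, rfl⟩
    obtain ⟨u, hu, q⟩ := h.z1A (Cj.of_mem hk)
    exact hu.eq.symm ▸ (Cj.of' (A_comm u q a ha)).mem
  have m : ∀ {k u}, Cj φ k z z → Cj φ k z1 u → φ u ∈ E := fun a b => subset_closure ⟨_, a.mem, b⟩
  have m1 : φ z1 ∈ E := m (Cj.of' (z_cent 1)) (Cj.of' (t := 1) rfl)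
  have m2 : φ z2 ∈ E := m (Cj.of' (z_cent s)) (Cj.of' (t := s) (by decide))
  have m3 : φ c ∈ E := h.cz1.elim fun _ k => m k.1 k.2
  have aQ : φ a ∈ pCoreOf 2 𝐂₁(φ z) := stab h.ch hn (Cj.of' (z_cent a)).mem hE fun q hq => by
    obtain ⟨t, rfl⟩ := h.Q_le hq
    obtain ⟨i, j, l, r⟩ := f8 a ha t
    rw [← map_inv, ← map_inv, ← map_mul, ← map_mul, ← map_mul, r, map_mul, map_mul]
    refine mul_mem (mul_mem ?_ ?_) ?_
    · cases i; exacts [(map_one φ).symm ▸ one_mem _, m1]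
    · cases j; exacts [(map_one φ).symm ▸ one_mem _, m2]
    · cases l; exacts [(map_one φ).symm ▸ one_mem _, m3]
  obtain ⟨u, hu, -⟩ := h.cjQ e aQ
  have q : φ u ∈ 𝐂(E) :=
    hu ▸ conj_mem_of_mem_normalizer (normalizer_le_normalizer_centralizer E (hn e.mem)) hE
  refine ⟨u, hu, f9 u (h.inj ?_) (h.inj ?_)⟩ <;> rw [map_mul, map_mul]
  · exact (mem_centralizer_iff'.1 q _ m1).symm
  · exact (mem_centralizer_iff'.1 q _ m3).symm

theorem C_le : 𝐂₁(φ z) ≤ 𝐍(A.map φ) := fun k hk => mem_normalizer_of_conj_mem (by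
  rintro _ ⟨a, ha, rfl⟩
  obtain ⟨u, hu, q⟩ := h.nA (Cj.of_mem hk) ha
  exact ⟨u, q, hu.eq.symm⟩)

theorem cA {k : G} (hk : k ∈ 𝐂(A.map φ)) : k ∈ φ.range := by
  have kz : k ∈ 𝐂₁(φ z) := mem_c1.2 (mem_centralizer_iff'.1 hk _ (mem_map_of_mem φ rfl)).symm
  refine h.Q_le (stab h.ch h.C_le kz hk fun q hq => ?_)
  have h1 : q * k * q⁻¹ * k⁻¹ ∈ 𝐂(A.map φ) := mul_mem (conj_mem_of_mem_normalizer
    (normalizer_le_normalizer_centralizer _ (h.C_le (pCoreOf_le 2 _ hq))) hk) (inv_mem hk)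
  have h2 : q * k * q⁻¹ * k⁻¹ ∈ pCoreOf 2 𝐂₁(φ z) := by
    have := mul_mem hq (conj_mem_of_mem_normalizer (le_normalizer_pCoreOf 2 _ kz) (inv_mem hq))
    simpa [mul_assoc] using this
  obtain ⟨t, ht⟩ := h.Q_le h2
  rw [← ht] at h1 ⊢
  exact mem_map_of_mem φ (f19 t fun a ha => h.inj (by
    rw [map_mul, map_mul]; exact (mem_centralizer_iff'.1 h1 _ (mem_map_of_mem φ ha)).symm))

theorem wc {g : G} (h0 : cj[g] (A.map φ) ≤ J.map φ) (h1 : φ z1 ∈ cj[g] (A.map φ))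
    (h2 : φ z2 ∈ cj[g] (A.map φ)) : g ∈ 𝐍(A.map φ) := by
  have a : J.map φ ≤ 𝐍(cj[g] (A.map φ)) := by
    rintro _ ⟨t, ht, rfl⟩
    refine mem_normalizer_of_conj_mem fun x hx => ?_
    obtain ⟨y, hy, rfl⟩ := h0 hx
    obtain ⟨i, j, r⟩ := J_comm t ht y hy
    rw [← map_inv, ← map_mul, ← map_mul, r, map_mul, map_mul]
    refine mul_mem (mul_mem ?_ ?_) hx
    · cases i; exacts [(map_one φ).symm ▸ one_mem _, h1]
    · cases j; exacts [(map_one φ).symm ▸ one_mem _, h2]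
  rw [← cj_normalizer, le_cj_iff] at a
  have T : IsSyl 2 φ.range 𝐍(A.map φ) := h.syl.mono
    (by rintro _ ⟨t, rfl⟩; exact h.C_le (Cj.of' (z_cent t)).mem) le_top
  obtain ⟨n, hn, k⟩ := T.exists_cj_le (isPGroup_cj _ (h.pg J)) a
  rw [← cj_mul] at k
  have k' : ∀ t, inJ t = true → ∃ t', Cj φ (n * g⁻¹) t t' := fun t ht =>
    (k (conj_mem_cj _ (mem_map_of_mem φ ht))).imp fun _ => Eq.symm
  obtain ⟨u, hu⟩ := k' z rfl
  rcases h.big k' hu (fun t _ => z_cent t) (by decide) with r | r | r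
  · have := h.C_le (hu.cast rfl r).mem
    simpa using (𝐍(A.map φ)).mul_mem ((𝐍(A.map φ)).inv_mem this) hn
  · exact (h.dis (r ▸ hu.cn) (Cn.refl _)).elim
  · exact (h.dis ((r ▸ hu.cn).trans h.z12.symm) (Cn.refl _)).elim

end Ctx

end CF.Q10
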