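import Mathlib.GroupTheory.SpecificGroups.Dihedral
import Mathlib.GroupTheory.Perm.Fin
import Mathlib.GroupTheory.Index
import Mathlib.Algebra.Group.MinimalAxioms

/-! A coded model of the wreath product of the dihedral group of order 8 by a group of order 2. -/

set_option autoImplicit false
set_option maxRecDepth 100000

namespace CF.Q10

open Equiv

/-- the element `a^i v^j z^k` of the dihedral group of order 8 -/
structure D8 : Type where
  i : Bool
  j : Bool
  k : Bool
  deriving DecidableEq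

instance instDecAllD (P : D8 → Prop) [DecidablePred P] : Decidable (∀ a, P a) :=
  decidable_of_iff (∀ i j k, P ⟨i, j, k⟩) ⟨fun h a => h a.i a.j a.k, fun h _ _ _ => h _⟩

instance instDecExD (P : D8 → Prop) [DecidablePred P] : Decidable (∃ a, P a) :=
  decidable_of_iff (∃ i j k, P ⟨i, j, k⟩) ⟨fun ⟨_, _, _, h⟩ => ⟨_, h⟩, fun ⟨a, h⟩ => ⟨a.i, a.j, a.k, h⟩⟩

instance instMulD : Mul D8 :=
  ⟨fun a b => ⟨xor a.i b.i, xor a.j b.j, xor (xor a.k b.k) (a.j && b.i)⟩⟩
instance instOneD : One D8 := ⟨⟨false, false, false⟩⟩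
instance instInvD : Inv D8 := ⟨fun a => ⟨a.i, a.j, xor a.k (a.i && a.j)⟩⟩

instance instGroupD : Group D8 := Group.ofLeftAxioms (by decide) (by decide) (by decide)

/-- generators -/
def da : D8 := ⟨true, false, false⟩
/-- generators -/
def dv : D8 := ⟨false, true, false⟩
/-- the central involution -/
def dz : D8 := ⟨false, false, true⟩

/-- the element `(x, y) s^e` of the wreath product -/
structure T0 : Type where
  x : D8
  y : D8
  e : Bool
  deriving DecidableEq

instance instDecAllT (P : T0 → Prop) [DecidablePred P] : Decidable (∀ a, P a) :=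
  decidable_of_iff (∀ x y e, P ⟨x, y, e⟩) ⟨fun h a => h a.x a.y a.e, fun h _ _ _ => h _⟩

instance instDecExT (P : T0 → Prop) [DecidablePred P] : Decidable (∃ a, P a) :=
  decidable_of_iff (∃ x y e, P ⟨x, y, e⟩) ⟨fun ⟨_, _, _, h⟩ => ⟨_, h⟩, fun ⟨a, h⟩ => ⟨a.x, a.y, a.e, h⟩⟩

instance instMulT : Mul T0 :=
  ⟨fun a b => ⟨a.x * cond a.e b.y b.x, a.y * cond a.e b.x b.y, xor a.e b.e⟩⟩
instance instOneT : One T0 := ⟨⟨1, 1, false⟩⟩
instance instInvT : Inv T0 := ⟨fun a => ⟨(cond a.e a.y a.x)⁻¹, (cond a.e a.x a.y)⁻¹, a.e⟩⟩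

theorem mul_def (a b : T0) :
    a * b = ⟨a.x * cond a.e b.y b.x, a.y * cond a.e b.x b.y, xor a.e b.e⟩ := rfl

instance instGroupT : Group T0 := Group.ofLeftAxioms
  (fun ⟨_, _, e⟩ ⟨_, _, f⟩ ⟨_, _, _⟩ => by cases e <;> cases f <;> simp [mul_def, mul_assoc])
  (by decide +kernel) (by decide +kernel)

/-- all elements -/
def allD : List D8 := [true, false].flatMap fun i => [true, false].flatMap fun j =>
  [true, false].map fun k => ⟨i, j, k⟩

/-- all elements -/
def allT : List T0 := allD.flatMap fun x => allD.flatMap fun y => [true, false].map fun e => ⟨x, y, e⟩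

instance instFintypeD : Fintype D8 := ⟨⟨(allD : Multiset D8), by decide +kernel⟩,
  fun a => (by decide +kernel : ∀ a : D8, a ∈ allD) a⟩

instance instFintypeT : Fintype T0 := ⟨⟨(allT : Multiset T0), by
  show allT.Nodup
  decide +kernel⟩, fun a => (by decide +kernel : ∀ a : T0, a ∈ allT) a⟩

/-- named elements -/
def a1 : T0 := ⟨da, 1, false⟩
/-- named elements -/
def v1 : T0 := ⟨dv, 1, false⟩
/-- named elements -/
def z1 : T0 := ⟨dz, 1, false⟩
/-- named elements -/
def a2 : T0 := ⟨1, da, false⟩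
/-- named elements -/
def v2 : T0 := ⟨1, dv, false⟩
/-- named elements -/
def z2 : T0 := ⟨1, dz, false⟩
/-- named elements -/
def z : T0 := ⟨dz, dz, false⟩
/-- named elements -/
def c : T0 := ⟨da, da, false⟩
/-- named elements -/
def w : T0 := ⟨dv, dv, false⟩
/-- named elements -/
def b : T0 := ⟨da, dz, false⟩
/-- named elements -/
def s : T0 := ⟨1, 1, true⟩

/-- a subgroup given by a Boolean test -/
def sub (f : T0 → Bool) (h1 : f 1 = true) (hm : ∀ a, f a = true → ∀ b, f b = true → f (a * b) = true)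
    (hi : ∀ a, f a = true → f a⁻¹ = true) : Subgroup T0 where
  carrier := {a | f a = true}
  one_mem' := h1
  mul_mem' := fun {a b} ha hb => hm a ha b hb
  inv_mem' := fun {a} ha => hi a ha

/-- tests -/
def inJ (a : T0) : Bool := !a.e
/-- tests -/
def inA (a : T0) : Bool := !a.e && !a.x.j && !a.y.j
/-- tests -/
def inB (a : T0) : Bool := !a.e && !a.x.j && !a.y.i
/-- tests -/
def inB' (a : T0) : Bool := !a.e && !a.x.i && !a.y.j
/-- tests -/
def inT1 (a : T0) : Bool := !(xor (xor a.x.i a.y.i) a.e)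

/-- the base group -/
def J : Subgroup T0 := sub inJ rfl (by decide +kernel) (by decide +kernel)
/-- the second normal elementary abelian subgroup of order 16 -/
def A : Subgroup T0 := sub inA rfl (by decide +kernel) (by decide +kernel)
/-- a non-normal elementary abelian subgroup of order 16 -/
def B : Subgroup T0 := sub inB rfl (by decide +kernel) (by decide +kernel)
/-- a maximal subgroup with few involutions -/
def T1 : Subgroup T0 := sub inT1 rfl (by decide +kernel) (by decide +kernel)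
/-- the normal four-group of the first factor -/
def V : Subgroup T0 := sub (fun a => !a.e && !a.x.i && a.y == 1) rfl (by decide +kernel) (by decide +kernel)

theorem mem_J {a : T0} : a ∈ J ↔ inJ a = true := Iff.rfl
theorem mem_A {a : T0} : a ∈ A ↔ inA a = true := Iff.rfl
theorem mem_B {a : T0} : a ∈ B ↔ inB a = true := Iff.rfl

theorem T1_index : T1.index = 2 :=
  Subgroup.index_eq_two_iff.2 ⟨s, (by decide +kernel : ∀ u : T0,
    (inT1 (u * s) = true ∧ ¬ inT1 u = true) ∨ (inT1 u = true ∧ ¬ inT1 (u * s) = true))⟩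

/-- the order of a centralizer -/
def cc (u : T0) : ℕ := (allT.filter fun t => t * u = u * t).length

theorem card_sub (H : Subgroup T0) (f : T0 → Bool) (h : ∀ a, a ∈ H ↔ f a = true) :
    Nat.card H = (allT.filter f).length := by
  classical
  rw [Nat.card_eq_fintype_card, Fintype.card_of_subtype (Finset.univ.filter fun a => f a = true)
    fun a => by simp [h]]
  show Multiset.card (Multiset.filter _ (allT : Multiset T0)) = _
  simp

theorem card_cent (u : T0) : Nat.card (Subgroup.centralizer ({u} : Set T0)) = cc u :=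
  card_sub _ _ fun a => by simp [Subgroup.mem_centralizer_singleton_iff]

theorem card_J : Nat.card J = 64 := (card_sub _ inJ fun _ => Iff.rfl).trans (by decide +kernel)
theorem card_A : Nat.card A = 16 := (card_sub _ inA fun _ => Iff.rfl).trans (by decide +kernel)
theorem card_B : Nat.card B = 16 := (card_sub _ inB fun _ => Iff.rfl).trans (by decide +kernel)

theorem pow8 : ∀ u : T0, u * u * (u * u) * (u * u * (u * u)) = 1 := by decide +kernel

theorem cc_z : cc z = 128 := by decide +kernel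
theorem cc_z1 : cc z1 = 64 := by decide +kernel
theorem cc_z2 : cc z2 = 64 := by decide +kernel
theorem cc_c : cc c = 32 := by decide +kernel
theorem cc_le : ∀ u, cc u ≤ 128 := by decide +kernel
theorem cc_64 : ∀ u, cc u ≤ 64 ∨ u = 1 ∨ u = z := by decide +kernel
theorem cc_32 : ∀ u, cc u ≤ 32 ∨ u = 1 ∨ u = z ∨ u = z1 ∨ u = z2 := by decide +kernel

theorem f1 : ∀ α : T0, inJ α = true → α * α = 1 → ∀ β, inJ β = true → β * β = 1 →
    α * β * (α * β) = z → ∀ x, inJ x = true → x * α = α * x → x * β = β * x →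
    x = 1 ∨ x = z1 ∨ x = z2 ∨ x = z := by decide +kernel

theorem f1' : ∀ x : T0, x = 1 ∨ x = z1 ∨ x = z2 ∨ x = z → ∀ y, inJ y = true → y * y = 1 →
    x * y * (x * y) = 1 := by decide +kernel

theorem inJ_of : ∀ u : T0, u = z1 ∨ u = z2 → ∀ t, t * u = u * t → inJ t = true := by decide +kernel

theorem f2 : ∀ α : T0, inJ α = true → α * α = 1 → ∀ β, inJ β = true → β * β = 1 →
    α * β * (α * β) = 1 ∨ α * β * (α * β) = z1 ∨ α * β * (α * β) = z2 ∨
      (α * β * (α * β) = z ∧ α * β = β * z * α ∧ (a1 * β = β * z1 * a1 ∨ v1 * β = β * z1 * v1)) := by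
  decide +kernel

theorem f3 : ∀ α : T0, α * c = c * α → α * α = 1 → ∀ β, β * c = c * β → β * β = 1 →
    α * β * (α * β) = 1 ∨ α * β * (α * β) = c ∨ α * β * (α * β) = c * z ∨
      ∃ t, t * β = s * t ∨ t * β = z1 * t ∨ t * β = c * t := by
  decide +kernel

theorem f4 : ∀ u : T0, ∀ ζ, ζ = u * u → ζ * ζ = 1 → ζ = 1 ∨ ζ = z ∨ ζ = z1 ∨ ζ = z2 ∨
    (z1 * ζ = ζ * z1 ∧ ∃ σ, σ * ζ = ζ * σ ∧ z1 * σ * (z1 * σ) = z) := by
  decide +kernel

theorem f5 : ∀ u : T0, z1 * (u * u) = u * u * z1 := by decide +kernel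

theorem f6 : ∀ u : T0, u * s = s * u → u * u = 1 → u = 1 ∨ u = z ∨ u = c ∨ u = c * z ∨
    ∃ t, t * u = s * t ∨ t * u = w * t := by decide +kernel

theorem f7 : ∀ u : T0, u * u = 1 → (u * c * (u * c) = 1 ∨ u * c * (u * c) = z) → inA u = true ∨
    ∃ t, t * u = s * t ∨ t * u = w * t := by decide +kernel

theorem f8 : ∀ a : T0, inA a = true → ∀ t, ∃ i j k : Bool,
    t * a * t⁻¹ * a⁻¹ = cond i z1 1 * cond j z2 1 * cond k c 1 := by decide +kernel

theorem f9 : ∀ t : T0, t * z1 = z1 * t → t * c = c * t → inA t = true := by decide +kernel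

theorem f10 : ∀ t : T0, t * z1 * t⁻¹ * z1⁻¹ = 1 ∨ t * z1 * t⁻¹ * z1⁻¹ = z := by decide +kernel

theorem A_comm : ∀ a : T0, inA a = true → ∀ t, inA t = true → a * t = t * a := by decide +kernel

theorem A_norm : ∀ a : T0, inA a = true → ∀ t, inA (t * a * t⁻¹) = true := by decide +kernel

theorem f11 : ∀ u : T0, inT1 u = true → u * u = 1 → u = 1 ∨
    ∃ t, t * u = z * t ∨ t * u = z1 * t ∨ t * u = v1 * t ∨ t * u = v1 * z2 * t ∨ t * u = w * t ∨
      t * u = c * t := by decide +kernel

theorem f12 : ∀ u : T0, ∀ p, p = u * u → p * p = 1 → inA p = true ∨ ∃ t, t * p = w * t := by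
  decide +kernel

theorem f13 : ∀ p : T0, inA p = true → p ≠ 1 → p ≠ z → ∀ q, inA q = true → q ≠ 1 → q ≠ z →
    p * q ≠ 1 → p * q ≠ z → ∀ y, inA y = false → y * p = p * y → y * q = q * y →
    (∃ x ∈ [p, q, p * q], x = z1 ∨ x = z2) ∧
      ∃ x ∈ [p, q, p * q], x ∈ [a1, a1 * z1, a2, a2 * z2] ∨ x * z ∈ [a1, a1 * z1, a2, a2 * z2] := by
  decide +kernel

theorem J_comm : ∀ t : T0, inJ t = true → ∀ x, inJ x = true → ∃ i j : Bool,
    t * x * t⁻¹ = cond i z1 1 * cond j z2 1 * x := by decide +kernel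

theorem f14 : ∀ α : T0, inA α = true → ∀ β, inJ β = true → β * β = 1 → α * β * (α * β) = z1 →
    β = v1 ∨ β = v1 * z1 ∨ ∃ t, t * β = v1 * z2 * t ∨ t * β = w * t ∨ t * β = v1 * a2 * t := by
  decide +kernel

theorem f15 : ∀ y : T0, inA y = true → y * v1 = v1 * y → y = 1 ∨ y = z1 ∨ y = z2 ∨ y = z ∨
    y = a2 ∨ y = a2 * z2 ∨ ∃ t, t * y = b * t := by decide +kernel

theorem f16 : ∀ α : T0, inA α = true → α * v1 ≠ v1 * α →
    (α.x.i && α.y.i) = true ∨ (∃ t, t * α = b * t) ∨ ∃ t, t * (α * z2) = b * t := by decide +kernel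

theorem f17 : ∀ t : T0, t * v1 = v1 * t → t * z1 = z1 * t → t * a2 = a2 * t →
    inB' t = true := by decide +kernel

theorem f18 : ∀ y : T0, inA y = true → y * v1 = v1 * y → y ≠ 1 → y ≠ z1 → y ≠ z2 → y ≠ z →
    y * a2 = 1 ∨ y * a2 = z1 ∨ y * a2 = z2 ∨ y * a2 = z := by decide +kernel

theorem f19 : ∀ t : T0, (∀ a, inA a = true → t * a = a * t) → inA t = true := by decide +kernel

theorem f20 : ∀ t : T0, t * v1 = v1 * t → t * z1 = z1 * t → t.e = false ∧ t.x.i = false := by
  decide +kernel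

theorem z_cent : ∀ t : T0, t * z = z * t := by decide +kernel

theorem cent_z : ∀ u : T0, u * s = s * u → u * a1 = a1 * u → u * v1 = v1 * u → u = 1 ∨ u = z := by
  decide +kernel

/-- the permutation representation of the dihedral group -/
def pf (d : D8) : Perm (Fin 4) :=
  cond d.i (swap 0 1) 1 * cond d.j (swap 0 2 * swap 1 3) 1 * cond d.k (swap 0 1 * swap 2 3) 1

/-- the permutation representation of the dihedral group -/
def pp : D8 →* Perm (Fin 4) := MonoidHom.mk' pf (by decide +kernel)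

theorem pp_inj : Function.Injective pp :=
  (injective_iff_map_eq_one pp).2 (by decide +kernel : ∀ d, pf d = 1 → d = 1)

theorem pp_cent : ∀ f : Perm (Fin 4), f * pf dz = pf dz * f → ∃ d, pf d = f := by decide +kernel

/-- a 3-cycle -/
def ρ : Perm (Fin 4) := swap 0 1 * swap 0 2

theorem ρ_z : ρ * pp dz = pp dv * ρ := (by decide +kernel : ρ * pf dz = pf dv * ρ)
theorem ρ_v : ρ * pp dv = pp (dv * dz) * ρ := (by decide +kernel : ρ * pf dv = pf (dv * dz) * ρ)
theorem ρ_3 : ρ * ρ * ρ = 1 := by decide +kernel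
theorem ρ_a : pp da * ρ = ρ * ρ * pp da := (by decide +kernel : pf da * ρ = ρ * ρ * pf da)
theorem ρ_fix : ∀ d : D8, d.i = false → ρ * pf d = pf d * ρ → d = 1 := by decide +kernel

/-- the action of the 3-cycle on the four-group -/
def θ (d : D8) : D8 := ⟨false, xor d.j d.k, d.j⟩

theorem ρ_θ : ∀ d : D8, d.i = false → ρ * pf d = pf (θ d) * ρ := by decide +kernel

/-- the standard dihedral group -/
def toDih (d : D8) : DihedralGroup 4 :=
  cond d.i (.sr 0) 1 * cond d.j (.sr 1) 1 * cond d.k (.r 2) 1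

/-- the standard dihedral group -/
noncomputable def eDih : D8 ≃* DihedralGroup 4 :=
  MulEquiv.ofBijective (MonoidHom.mk' toDih (by decide +kernel))
    ⟨(injective_iff_map_eq_one _).2 (by decide +kernel : ∀ d, toDih d = 1 → d = 1),
      (by decide +kernel : ∀ x, ∃ d, toDih d = x)⟩

/-- first factor -/
def i1 : D8 →* T0 := MonoidHom.mk' (fun d => ⟨d, 1, false⟩) (by decide +kernel)
/-- second factor -/
def i2 : D8 →* T0 := MonoidHom.mk' (fun d => ⟨1, d, false⟩) (by decide +kernel)

theorem i12 : ∀ t : T0, t.e = false → t = i1 t.x * i2 t.y :=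
  (by decide +kernel : ∀ t : T0, t.e = false → t = ⟨t.x, 1, false⟩ * ⟨1, t.y, false⟩)

end CF.Q10
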